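import Cfsg.Agent.BpSevenCo.Data
import Cfsg.Agent.MFive.Fus
import Cfsg.Agent.S0399

/-!
# The elements of order seven of `Co1` without fixed points on `Λ/2Λ` (helper32)

`conj_pow` : they are conjugate to powers of `x = mk x0`.  Proof: `⟨x, y⟩` is a Sylow 7-subgroup; its four lines
`⟨x y^m⟩`, `m = 0, 3, 5, 6`, are conjugate (by `n`, `t`), and the elements of the other four lines have fixed points.
-/

set_option autoImplicit false

namespace Cfsg.Agent.BpSevenCo.Conj

open Cfsg Subgroup Cfsg.Agent.BpSevenCo.Data Cfsg.Agent.MonsterU.Lam2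
open Cfsg.Agent.LThreeMB (fr fr_conj)
open Cfsg.Spor (Co1)

theorem finite_co1 : Finite Co1 := Nat.finite_of_card_ne_zero (by rw [Cfsg.Agent.S0399.result.2]; norm_num)

/-- the image of `x0` -/
noncomputable def x : Co1 := QuotientGroup.mk x0
/-- the image of `y0` -/
noncomputable def y : Co1 := QuotientGroup.mk y0
/-- the image of `t0` -/
noncomputable def t : Co1 := QuotientGroup.mk t0
/-- the image of `n0` -/
noncomputable def n : Co1 := QuotientGroup.mk n0

/-- the projection -/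
noncomputable abbrev q : Co0 →* Co1 := QuotientGroup.mk' (center Co0)

theorem x_pow : x ^ 7 = 1 := by
  have h := congrArg q x0_pow
  rwa [map_pow, map_one] at h

theorem y_pow : y ^ 7 = 1 := by
  have h := congrArg q y0_pow
  rwa [map_pow, map_one] at h

theorem t_pow : t ^ 3 = 1 := by
  have h := congrArg q t0_pow
  rwa [map_pow, map_one] at h

theorem comm_xy : x * y = y * x := by
  have h := congrArg q xy
  rwa [map_mul, map_mul] at h

theorem comm_ty : t * y = y * t := by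
  have h := congrArg q ty
  rwa [map_mul, map_mul] at h

theorem txt1 : t * x * t⁻¹ = x ^ 2 := by
  have h := congrArg q txt
  rwa [map_mul, map_mul, map_inv, map_pow] at h

theorem nxn1 : n * x * n⁻¹ = x * y ^ 3 := by
  have h := congrArg q nxn
  rwa [map_mul, map_mul, map_inv, map_mul, map_pow] at h

theorem fr_x : fr x = 1 := fr_x0

theorem fr_y : fr y = 2 ^ 6 := fr_y0

/-- `s` has a nonzero fixed vector -/
def NF (s : Co1) : Prop := ∃ v : L2, v ≠ 0 ∧ s • v = v

theorem not_nf {s : Co1} (h : fr s = 1) : ¬ NF s := by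
  rintro ⟨v, hv, hs⟩
  obtain ⟨h1, -⟩ := Nat.card_eq_one_iff_unique.1 h
  have h2 := Subtype.ext_iff.1 (h1.elim ⟨v, hs⟩ ⟨0, smul_zero s⟩)
  exact hv h2

theorem nf_of_ne {s : Co1} (h : fr s ≠ 1) : NF s := by
  by_contra hn
  apply h
  have : Nonempty {v : L2 // s • v = v} := ⟨⟨0, smul_zero s⟩⟩
  rw [fr, Nat.card_eq_one_iff_unique]
  refine ⟨⟨fun a b => ?_⟩, this⟩
  have h1 : ∀ a : {v : L2 // s • v = v}, (a : L2) = 0 := by
    intro a
    by_contra ha
    exact hn ⟨a, ha, a.2⟩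
  exact Subtype.ext ((h1 a).trans (h1 b).symm)

theorem NF.pow {s : Co1} (h : NF s) (k : ℕ) : NF (s ^ k) := by
  obtain ⟨v, hv, hs⟩ := h
  refine ⟨v, hv, ?_⟩
  induction k with
  | zero => rw [pow_zero, one_smul]
  | succ k ih => rw [pow_succ, mul_smul, hs, ih]

theorem NF.conj {s : Co1} (h : NF s) (g : Co1) : NF (g * s * g⁻¹) := by
  obtain ⟨v, hv, hs⟩ := h
  refine ⟨g • v, fun h0 => hv ?_, ?_⟩
  · rw [← inv_smul_smul g v, h0, smul_zero]
  · rw [mul_smul, mul_smul, inv_smul_smul, hs]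

/-- `s` has a fixed vector or is conjugate to a power of `x` -/
def Good (s : Co1) : Prop := NF s ∨ ∃ (g : Co1) (i : ℕ), g * s * g⁻¹ = x ^ i

theorem Good.pow {s : Co1} (h : Good s) (k : ℕ) : Good (s ^ k) := by
  rcases h with h | ⟨g, i, h⟩
  · exact Or.inl (h.pow k)
  · refine Or.inr ⟨g, i * k, ?_⟩
    rw [pow_mul, ← h, conj_pow]

theorem Good.conj {s : Co1} (h : Good s) (g : Co1) : Good (g * s * g⁻¹) := by
  rcases h with h | ⟨k, i, h⟩
  · exact Or.inl (h.conj g)
  · refine Or.inr ⟨k * g⁻¹, i, ?_⟩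
    rw [← h]
    group

theorem Good.of_conj {s g : Co1} (h : Good (g * s * g⁻¹)) : Good s := by
  have h1 := h.conj g⁻¹
  have e : g⁻¹ * (g * s * g⁻¹) * g⁻¹⁻¹ = s := by group
  rwa [e] at h1

theorem cxy (i j : ℕ) : Commute (x ^ i) (y ^ j) := (show Commute x y from comm_xy).pow_pow i j

theorem pow_mod {g : Co1} (hg : g ^ 7 = 1) (i : ℕ) : g ^ i = g ^ (i % 7) := by
  conv_lhs => rw [← Nat.mod_add_div i 7, pow_add, pow_mul, hg, one_pow, mul_one]

theorem xy_pow (i m : ℕ) : (x * y ^ m) ^ i = x ^ i * y ^ (m * i) := by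
  have h : Commute x (y ^ m) := by simpa only [pow_one] using cxy 1 m
  rw [h.mul_pow, ← pow_mul]

theorem good_four {m : ℕ} (h : Good (x * y ^ m)) : Good (x * y ^ (4 * m)) := by
  have h1 := (h.conj t).pow 4
  have h2 : t * (x * y ^ m) * t⁻¹ = x ^ 2 * y ^ m := by
    have h3 : t * y ^ m * t⁻¹ = y ^ m := by
      rw [mul_inv_eq_iff_eq_mul]
      exact (show Commute t y from comm_ty).pow_right m
    calc t * (x * y ^ m) * t⁻¹ = (t * x * t⁻¹) * (t * y ^ m * t⁻¹) := by group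
      _ = x ^ 2 * y ^ m := by rw [txt1, h3]
  rw [h2, (cxy 2 m).mul_pow, ← pow_mul, ← pow_mul] at h1
  rwa [pow_mod x_pow (2 * 4), pow_one, mul_comm m 4] at h1

theorem good_zero : Good (x * y ^ 0) := by
  refine Or.inr ⟨1, 1, ?_⟩
  rw [pow_zero, mul_one, inv_one, mul_one, one_mul, pow_one]

theorem good_one : Good (x * y ^ 1) := by
  refine Or.inl ⟨cl fxy, fxy_ne, ?_⟩
  rw [pow_one]
  exact fxy_fix

theorem good_three : Good (x * y ^ 3) := by
  rw [← nxn1]
  refine Good.conj (Or.inr ⟨1, 1, ?_⟩) n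
  rw [inv_one, mul_one, one_mul, pow_one]

theorem good_mod {m k : ℕ} (h : Good (x * y ^ m)) (e : m % 7 = k) : Good (x * y ^ k) := by
  rw [← e, ← pow_mod y_pow]
  exact h

theorem good_line (m : ℕ) : Good (x * y ^ m) := by
  rw [pow_mod y_pow m]
  have hm : m % 7 < 7 := Nat.mod_lt _ (by norm_num)
  have h4 : Good (x * y ^ 4) := good_mod (good_four good_one) rfl
  have h2 : Good (x * y ^ 2) := good_mod (good_four h4) rfl
  have h5 : Good (x * y ^ 5) := good_mod (good_four good_three) rfl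
  have h6 : Good (x * y ^ 6) := good_mod (good_four h5) rfl
  have hk : m % 7 = 0 ∨ m % 7 = 1 ∨ m % 7 = 2 ∨ m % 7 = 3 ∨ m % 7 = 4 ∨ m % 7 = 5 ∨ m % 7 = 6 := by omega
  rcases hk with h | h | h | h | h | h | h
  · rw [h]; exact good_zero
  · rw [h]; exact good_one
  · rw [h]; exact h2
  · rw [h]; exact good_three
  · rw [h]; exact h4
  · rw [h]; exact h5
  · rw [h]; exact h6

theorem nf_y : NF y := nf_of_ne (by rw [fr_y]; norm_num)

theorem good_all (i j : ℕ) : Good (x ^ i * y ^ j) := by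
  by_cases hi : i % 7 = 0
  · rw [pow_mod x_pow i, hi, pow_zero, one_mul]
    exact Good.pow (Or.inl nf_y) j
  · have h := (good_line (j * i ^ 5)).pow i
    rw [xy_pow] at h
    have h1 : (j * i ^ 5 * i) % 7 = j % 7 := by
      have h2 : i ^ 6 % 7 = 1 := by
        rw [Nat.pow_mod]
        have : i % 7 < 7 := Nat.mod_lt _ (by norm_num)
        generalize i % 7 = k at this hi
        interval_cases k <;> simp_all
      have h3 : j * i ^ 5 * i = j * i ^ 6 := by ring
      rw [h3, Nat.mul_mod, h2, mul_one, Nat.mod_mod]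
    rwa [pow_mod y_pow, h1, ← pow_mod y_pow] at h

theorem orderOf_x : orderOf x = 7 := by
  have : Fact (Nat.Prime 7) := ⟨by norm_num⟩
  refine orderOf_eq_prime x_pow fun h => ?_
  obtain ⟨v, hv, -⟩ := nf_y
  exact not_nf fr_x ⟨v, hv, by rw [h, one_smul]⟩

theorem y_ne : y ≠ 1 := by
  intro h
  have h1 := fr_y
  have h2 : fr (1 : Co1) = 2 ^ 24 := by
    rw [fr, ← Cfsg.Agent.MonsterU.Lam2.card_L2]
    exact Nat.card_congr (Equiv.subtypeUnivEquiv fun v => one_smul _ v)
  rw [h, h2] at h1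
  norm_num at h1

theorem orderOf_y : orderOf y = 7 := by
  have : Fact (Nat.Prime 7) := ⟨by norm_num⟩
  exact orderOf_eq_prime y_pow y_ne

/-- a nontrivial power of `x` has no fixed vector -/
theorem not_nf_pow {i : ℕ} (hi : i % 7 ≠ 0) : ¬ NF (x ^ i) := by
  intro h
  have h1 := h.pow (i ^ 5)
  rw [← pow_mul] at h1
  have h2 : (i * i ^ 5) % 7 = 1 := by
    have h3 : i * i ^ 5 = i ^ 6 := by ring
    rw [h3, Nat.pow_mod]
    have : i % 7 < 7 := Nat.mod_lt _ (by norm_num)
    generalize i % 7 = k at this hi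
    interval_cases k <;> simp_all
  rw [pow_mod x_pow, h2, pow_one] at h1
  exact not_nf fr_x h1

theorem y_notMem : y ∉ zpowers x := by
  have := finite_co1
  intro h
  rw [← mem_powers_iff_mem_zpowers] at h
  obtain ⟨i, hi⟩ := h
  have hi' : x ^ i = y := hi
  have h1 : i % 7 ≠ 0 := by
    intro h0
    rw [pow_mod x_pow, h0, pow_zero] at hi'
    exact y_ne hi'.symm
  apply not_nf_pow h1
  rw [hi']
  exact nf_y

/-- the homomorphism onto `⟨x, y⟩` -/
noncomputable def phi : Multiplicative ℤ × Multiplicative ℤ →* Co1 :=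
  MonoidHom.noncommCoprod (zpowersHom Co1 x) (zpowersHom Co1 y) fun a b => by
    show Commute (x ^ a.toAdd) (y ^ b.toAdd)
    exact (show Commute x y from comm_xy).zpow_zpow _ _

theorem phi_apply (a : Multiplicative ℤ × Multiplicative ℤ) : phi a = x ^ a.1.toAdd * y ^ a.2.toAdd := rfl

theorem mem_range {g : Co1} (hg : g ∈ phi.range) : ∃ i j : ℕ, g = x ^ i * y ^ j := by
  have := finite_co1
  obtain ⟨a, rfl⟩ := hg
  have h1 : x ^ a.1.toAdd ∈ Submonoid.powers x := mem_powers_iff_mem_zpowers.2 ⟨_, rfl⟩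
  have h2 : y ^ a.2.toAdd ∈ Submonoid.powers y := mem_powers_iff_mem_zpowers.2 ⟨_, rfl⟩
  obtain ⟨i, hi⟩ := h1
  obtain ⟨j, hj⟩ := h2
  exact ⟨i, j, by rw [phi_apply]; exact congrArg₂ _ hi.symm hj.symm⟩

theorem x_mem : x ∈ phi.range := ⟨(Multiplicative.ofAdd 1, 1), by
  rw [phi_apply]
  show x ^ (1 : ℤ) * y ^ (0 : ℤ) = x
  rw [zpow_one, zpow_zero, mul_one]⟩

theorem y_mem : y ∈ phi.range := ⟨(1, Multiplicative.ofAdd 1), by
  rw [phi_apply]
  show x ^ (0 : ℤ) * y ^ (1 : ℤ) = y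
  rw [zpow_one, zpow_zero, one_mul]⟩

theorem isPGroup : IsPGroup 7 phi.range := by
  rintro ⟨g, hg⟩
  obtain ⟨i, j, rfl⟩ := mem_range hg
  refine ⟨1, Subtype.ext ?_⟩
  show (x ^ i * y ^ j) ^ 7 ^ 1 = 1
  rw [pow_one, (cxy i j).mul_pow, ← pow_mul, ← pow_mul, mul_comm i, mul_comm j, pow_mul, pow_mul, x_pow, y_pow,
    one_pow, one_pow, one_mul]

/-- `⟨x, y⟩` is a Sylow 7-subgroup. -/
theorem sylow : ∃ S : Sylow 7 Co1, (S : Subgroup Co1) = phi.range := by
  have := finite_co1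
  have h7 : Nat.Prime 7 := by norm_num
  have : Fact (Nat.Prime 7) := ⟨h7⟩
  obtain ⟨S, hS⟩ := isPGroup.exists_le_sylow
  refine ⟨S, ?_⟩
  have hSc : Nat.card S ∣ 7 ^ 2 := by
    obtain ⟨k, hk⟩ := IsPGroup.iff_card.1 S.isPGroup'
    have h1 : Nat.card S ∣ Nat.card Co1 := Subgroup.card_subgroup_dvd_card _
    rw [hk, Cfsg.Agent.S0399.result.2] at h1
    rw [hk]
    apply pow_dvd_pow
    by_contra hc
    have h2 := (pow_dvd_pow 7 (show 3 ≤ k by omega)).trans h1
    norm_num at h2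
  have hle : zpowers x ≤ phi.range := by
    rw [zpowers_le]
    exact x_mem
  have hd : Nat.card ↥phi.range ∣ 7 ^ 2 := (Subgroup.card_dvd_of_le hS).trans hSc
  have h49 : Nat.card ↥phi.range = 7 ^ 2 := by
    obtain ⟨k, hk, hk2⟩ := (Nat.dvd_prime_pow h7).1 hd
    have hx : Nat.card ↥(zpowers x) = 7 := by rw [Nat.card_zpowers, orderOf_x]
    have h3 : 7 ∣ Nat.card ↥phi.range := by
      rw [← hx]
      exact Subgroup.card_dvd_of_le hle
    have h4 : Nat.card ↥phi.range ≠ 7 := by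
      intro h5
      have h6 := Subgroup.eq_of_le_of_card_ge hle (by rw [h5, hx])
      exact y_notMem (by rw [h6]; exact y_mem)
    rw [hk2] at h3 h4 ⊢
    interval_cases k
    · norm_num at h3
    · norm_num at h4
    · rfl
  symm
  apply Subgroup.eq_of_le_of_card_ge hS
  rw [h49]
  exact Nat.le_of_dvd (by norm_num) hSc

/-- **Elements of order seven without fixed points.** -/
theorem good_of_order {s : Co1} (hs : orderOf s = 7) : Good s := by
  have := finite_co1
  have h7 : Nat.Prime 7 := by norm_num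
  have : Fact (Nat.Prime 7) := ⟨h7⟩
  obtain ⟨S, hS⟩ := sylow
  have hp : IsPGroup 7 (zpowers s) := by
    rw [IsPGroup.iff_card]
    exact ⟨1, by rw [Nat.card_zpowers, hs, pow_one]⟩
  obtain ⟨S', hS'⟩ := hp.exists_le_sylow
  obtain ⟨g, hg⟩ := MulAction.exists_smul_eq Co1 S' S
  apply Good.of_conj (g := g)
  have h1 : g * s * g⁻¹ ∈ (S : Subgroup Co1) := by
    rw [← hg, Sylow.coe_subgroup_smul]
    exact ⟨s, hS' (mem_zpowers s), rfl⟩
  rw [hS] at h1
  obtain ⟨i, j, h2⟩ := mem_range h1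
  rw [h2]
  exact good_all i j

/-- **An element of order seven of `Co1` without fixed points on `Λ/2Λ` is conjugate to a power of `x`.** -/
theorem conj_pow {s : Co1} (hs : orderOf s = 7) (h1 : fr s = 1) :
    ∃ (g : Co1) (i : ℕ), i % 7 ≠ 0 ∧ g * s * g⁻¹ = x ^ i := by
  rcases good_of_order hs with h | ⟨g, i, h⟩
  · exact absurd h (not_nf h1)
  · refine ⟨g, i, fun h0 => ?_, h⟩
    rw [pow_mod x_pow, h0, pow_zero, conj_eq_one_iff] at h
    rw [h, orderOf_one] at hs
    norm_num at hs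

/-- The number of fixed points of an element of order seven is 1 or more; the subgroups without fixed points are
conjugate. -/
theorem wclass : Cfsg.Agent.MFive.WClassOf 7 1 := by
  intro s u hs hu hfs hfu
  obtain ⟨g, i, hi, h⟩ := conj_pow hs hfs
  obtain ⟨k, j, hj, h'⟩ := conj_pow hu hfu
  refine ⟨k⁻¹ * g, i * j ^ 5, ?_⟩
  have h2 : x ^ i = (x ^ j) ^ (i * j ^ 5) := by
    rw [← pow_mul, pow_mod x_pow i, pow_mod x_pow (j * (i * j ^ 5))]
    congr 1
    have h3 : j ^ 6 % 7 = 1 := by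
      rw [Nat.pow_mod]
      have : j % 7 < 7 := Nat.mod_lt _ (by norm_num)
      generalize j % 7 = k at this hj
      interval_cases k <;> simp_all
    have h4 : j * (i * j ^ 5) = i * j ^ 6 := by ring
    rw [h4, Nat.mul_mod, h3, mul_one, Nat.mod_mod]
  calc k⁻¹ * g * s * (k⁻¹ * g)⁻¹ = k⁻¹ * (g * s * g⁻¹) * k := by group
    _ = k⁻¹ * (k * u * k⁻¹) ^ (i * j ^ 5) * k := by rw [h, h2, h']
    _ = k⁻¹ * (k * u ^ (i * j ^ 5) * k⁻¹) * k := by rw [_root_.conj_pow]
    _ = u ^ (i * j ^ 5) := by group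

end Cfsg.Agent.BpSevenCo.Conj
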