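import Cfsg.Agent.BpSevenCo.Conj
import Cfsg.Agent.CpAutBig.SevenFix

/-!
# `y0 = r7` (helper32)

The explicit element `y0` of `BpSevenCo.Data` is the permutation `r7` of `CpAutBig.SevenFix`; `fr (mk r7) = 2 ^ 6`.
-/

set_option autoImplicit false

namespace Cfsg.Agent.BpSevenCo.RSeven

open Cfsg Subgroup Cfsg.Agent.BpSevenCo.Data Cfsg.Agent.BpSevenCo.Conj Cfsg.Agent.MonsterU.Lam2
open Cfsg.Agent.SporadicA Cfsg.Agent.SporadicStructure.Co0Matrix Cfsg.Agent.CoOneType.CoEval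
open Cfsg.Agent.SporadicA.GolayBase Cfsg.Agent.CpAutBig.SevenPerm Cfsg.Agent.CpAutBig.SevenFix
open Cfsg.Agent.LThreeMB (fr fr_conj)
open Cfsg.Spor (Co1)

theorem tabY : ∀ i < 24, (ap rY betaL).getD (F7.getD i 0) 0 = 8 * 64 ^ i := by decide +kernel

/-- `y0` is the permutation `r7`. -/
theorem y0_eq : y0 = r7 := by
  apply eq_of_fix
  apply Subtype.ext
  have h0 := (rep 1).apply (v := Cfsg.Agent.CoOneType.CoEval.beta) (l := betaL) (by decide) beta_coe
  refine h0.trans ?_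
  funext p
  have h1 : ((r7.1 Cfsg.Agent.CoOneType.CoEval.beta : leechLattice) : GolayPt → ℤ) p = (Cfsg.Agent.CoOneType.CoEval.beta : GolayPt → ℤ) (pi7.symm p) := isPerm_r7 _ p
  rw [h1]
  obtain ⟨u, rfl⟩ := pi7.surjective p
  rw [Equiv.symm_apply_apply]
  change (ap rY betaL).getD (idx (pi7 u)) 0 = vec betaL u
  rw [idx_pi7, vec_betaL]
  exact tabY _ (idx_lt u)

/-- **`mk r7` has `2 ^ 6` fixed points.** -/
theorem fr_r7 : fr (QuotientGroup.mk r7 : Co1) = 2 ^ 6 := by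
  rw [← y0_eq]
  exact fr_y0

end Cfsg.Agent.BpSevenCo.RSeven
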